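import Cfsg.Agent.Invol.Basic

/-!
# Involution sets in which non-commuting pairs have products of one prime order `p ≥ 5`
-/

set_option autoImplicit false

namespace Cfsg.Agent.OddTwoP

open Subgroup

variable {G : Type*} [Group G]

/-- An invariant set of involutions in which two members commute or have product of order `p`,
with `p ≥ 5` a prime. -/
structure Config (p : ℕ) (D : Set G) : Prop where
  prime : p.Prime
  five : 5 ≤ p
  inv : ∀ d ∈ D, orderOf d = 2
  conj : ∀ d ∈ D, ∀ g : G, g * d * g⁻¹ ∈ D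
  prod : ∀ x ∈ D, ∀ y ∈ D, Commute x y ∨ orderOf (x * y) = p

/-- The reflection of the dihedral group of `k, l` exchanging `k` and `l`. -/
def mid (p : ℕ) (k l : G) : G := (l * k) ^ ((p + 1) / 2) * k

/-- two commuting involutions (or 1) whose product has odd order are equal -/
theorem eq_of_pow {p : ℕ} (hp : Odd p) {u v : G} (hu : u * u = 1) (hv : v * v = 1)
    (h : Commute u v) (hpow : (u * v) ^ p = 1) : u = v := by
  have h2 : (u * v) ^ 2 = 1 := by rw [h.mul_pow, pow_two, pow_two, hu, hv, one_mul]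
  obtain ⟨j, rfl⟩ := hp
  rw [pow_succ, pow_mul, h2, one_pow, one_mul] at hpow
  rw [← inv_eq_of_mul_eq_one_left hv]
  exact eq_inv_of_mul_eq_one_left hpow

theorem eq_one_of_pow_two {p : ℕ} (hp : Odd p) {u : G} (hu : u * u = 1) (hpow : u ^ p = 1) :
    u = 1 := by
  obtain ⟨j, rfl⟩ := hp
  rwa [pow_succ, pow_mul, pow_two, hu, one_pow, one_mul] at hpow

namespace Config

variable {p : ℕ} {D : Set G} (hC : Config p D)
include hC

theorem odd : Odd p := hC.prime.odd_of_ne_two (by have := hC.five; omega)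

theorem sq {x : G} (hx : x ∈ D) : x * x = 1 := Invol.inv_mul_self (hC.inv x hx)

theorem inv_eq {x : G} (hx : x ∈ D) : x⁻¹ = x := Invol.inv_eq (hC.inv x hx)

theorem ne_one {x : G} (hx : x ∈ D) : x ≠ 1 := Invol.inv_ne_one (hC.inv x hx)

theorem conj_self {x y : G} (hx : x ∈ D) (hy : y ∈ D) : x * y * x ∈ D := by
  have h := hC.conj y hy x
  rwa [hC.inv_eq hx] at h

theorem order_eq {x y : G} (hx : x ∈ D) (hy : y ∈ D) (h : ¬ Commute x y) :
    orderOf (x * y) = p := (hC.prod x hx y hy).resolve_left h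

theorem pow_eq_one {x y : G} (hx : x ∈ D) (hy : y ∈ D) (h : ¬ Commute x y) :
    (x * y) ^ p = 1 := by
  rw [← hC.order_eq hx hy h, pow_orderOf_eq_one]

theorem conj_not_commute {x y : G} (hx : x ∈ D) (hy : y ∈ D) (h : ¬ Commute x y) :
    ¬ Commute y (x * y * x) := by
  intro hc
  have h4 : (y * x) ^ 4 = 1 := by
    have h2 : (y * (x * y * x)) ^ 2 = 1 := by
      rw [hc.mul_pow, pow_two, pow_two, hC.sq hy, hC.sq (hC.conj_self hx hy), one_mul]
    rw [show (4 : ℕ) = 2 * 2 from rfl, pow_mul, show (y * x) ^ 2 = y * (x * y * x) by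
      rw [pow_two]; simp only [mul_assoc]]
    exact h2
  have := orderOf_dvd_of_pow_eq_one h4
  rw [hC.order_eq hy hx fun h' => h h'.symm] at this
  have := Nat.le_of_dvd (by omega) this
  have := hC.five
  omega

theorem two_half : 2 * ((p + 1) / 2) = p + 1 := by
  obtain ⟨j, rfl⟩ := hC.odd
  omega

theorem mid_mem {k l : G} (hk : k ∈ D) (hl : l ∈ D) (h : ¬ Commute k l) : mid p k l ∈ D := by
  have hsemi : SemiconjBy k (k * l) (l * k) := by
    show k * (k * l) = l * k * k
    rw [← mul_assoc, hC.sq hk, one_mul, mul_assoc, hC.sq hk, mul_one]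
  set j := (p + 1) / 2 * ((p + 1) / 2) with hj
  have hinv : ((l * k) ^ j)⁻¹ = (k * l) ^ j := by
    rw [← inv_pow, mul_inv_rev, hC.inv_eq hk, hC.inv_eq hl]
  have h2 := hC.conj k hk ((l * k) ^ j)
  rw [hinv, mul_assoc, (hsemi.pow_right j).eq, ← mul_assoc, ← pow_add] at h2
  have e : j + j = p * ((p + 1) / 2) + (p + 1) / 2 := by
    rw [hj, ← two_mul, ← mul_assoc, hC.two_half, add_mul, one_mul]
  rwa [e, pow_add, pow_mul, hC.pow_eq_one hl hk fun h' => h h'.symm, one_pow, one_mul] at h2

theorem mid_conj {k l : G} (hk : k ∈ D) (hl : l ∈ D) (h : ¬ Commute k l) :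
    mid p k l * k * mid p k l = l := by
  rw [mid, mul_assoc _ k k, hC.sq hk, mul_one, ← mul_assoc, ← pow_add, ← two_mul,
    hC.two_half, pow_succ, hC.pow_eq_one hl hk fun h' => h h'.symm, one_mul, mul_assoc,
    hC.sq hk, mul_one]

theorem mid_unique {k l s : G} (hk : k ∈ D) (hs : s ∈ D) (h : ¬ Commute k l)
    (he : s * k * s = l) : s = mid p k l := by
  have hsk : ¬ Commute s k := by
    intro hc
    apply h
    rw [← he, hc.eq, mul_assoc, hC.sq hs, mul_one]
  rw [mid, ← he, show s * k * s * k = (s * k) ^ 2 by rw [pow_two]; simp only [mul_assoc],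
    ← pow_mul, hC.two_half, pow_succ, hC.pow_eq_one hs hk hsk, one_mul, mul_assoc, hC.sq hk,
    mul_one]

theorem conj_inj {k s s' : G} (hk : k ∈ D) (hs : s ∈ D) (hs' : s' ∈ D) (h : ¬ Commute s k)
    (he : s * k * s = s' * k * s') : s = s' := by
  have hn := hC.conj_not_commute hs hk h
  rw [hC.mid_unique hk hs hn rfl, hC.mid_unique hk hs' hn he.symm]

theorem mid_comm {k l : G} (hk : k ∈ D) (hl : l ∈ D) (h : ¬ Commute k l) :
    mid p k l = mid p l k := by
  refine hC.mid_unique hl (hC.mid_mem hk hl h) (fun h' => h h'.symm) ?_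
  have hm := hC.sq (hC.mid_mem hk hl h)
  nth_rewrite 2 [← hC.mid_conj hk hl h]
  generalize mid p k l = m at hm ⊢
  rw [show m * (m * k * m) * m = m * m * k * (m * m) by simp only [mul_assoc], hm, one_mul,
    mul_one]

theorem subgroup (H : Subgroup G) : Config p (((↑) : H → G) ⁻¹' D) where
  prime := hC.prime
  five := hC.five
  inv d hd := by rw [← Subgroup.orderOf_coe]; exact hC.inv _ hd
  conj d hd g := hC.conj _ hd (g : G)
  prod x hx y hy := by
    rcases hC.prod _ hx _ hy with h | h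
    · exact Or.inl (Subtype.ext h.eq)
    · right
      rw [← Subgroup.orderOf_coe]
      exact h

theorem map {H : Type*} [Group H] (f : G →* H) (hf : Function.Surjective f) :
    Config p (f '' D \ {1}) where
  prime := hC.prime
  five := hC.five
  inv d hd := by
    obtain ⟨⟨x, hx, rfl⟩, h1⟩ := hd
    exact Invol.orderOf_eq_two (by rw [← map_mul, hC.sq hx, map_one]) h1
  conj d hd g := by
    obtain ⟨⟨x, hx, rfl⟩, h1⟩ := hd
    obtain ⟨g, rfl⟩ := hf g
    refine ⟨⟨g * x * g⁻¹, hC.conj x hx g, by rw [map_mul, map_mul, map_inv]⟩, fun h => h1 ?_⟩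
    rwa [Set.mem_singleton_iff, conj_eq_one_iff] at h
  prod u hu v hv := by
    obtain ⟨⟨x, hx, rfl⟩, -⟩ := hu
    obtain ⟨⟨y, hy, rfl⟩, -⟩ := hv
    rcases hC.prod x hx y hy with h | h
    · exact Or.inl (h.map f)
    · rcases (Nat.dvd_prime hC.prime).1 (h ▸ orderOf_map_dvd f (x * y)) with e | e
      · left
        rw [orderOf_eq_one_iff, map_mul] at e
        have : f x = f y := by
          rw [eq_inv_of_mul_eq_one_left e, ← map_inv, hC.inv_eq hy]
        rw [this]
      · exact Or.inr (by rwa [map_mul] at e)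

end Config

end Cfsg.Agent.OddTwoP
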