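import Cfsg.Agent.OddTwoP.Minimal

/-!
# The case in which commuting is not transitive
-/

set_option autoImplicit false

namespace Cfsg.Agent.OddTwoP

open Subgroup

universe u

namespace Min

variable {G : Type u} [Group G] [Finite G] {p : ℕ} {D : Set G} (hM : Min p D)
include hM

/-- A member commuting with the product of two commuting members commutes with both. -/
theorem commute_of_commute_mul {x a z : G} (hx : x ∈ D) (ha : a ∈ D) (hz : z ∈ D)
    (hxa : Commute x a) (hne : x ≠ a) (hc : Commute z (x * a)) :
    Commute z x ∧ Commute z a := by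
  have hC := hM.cfg
  have e : x * (a * z * a) * x = z := by
    calc x * (a * z * a) * x = (x * a) * z * (a * x) := by simp only [mul_assoc]
      _ = z * (x * a) * (a * x) := by rw [hc.eq]
      _ = z := by
          rw [mul_assoc z, mul_assoc x, ← mul_assoc a, hC.sq ha, one_mul, hC.sq hx, mul_one]
  have e2 : a * z * a = x * z * x := by
    conv_rhs => rw [← e]
    calc a * z * a = (x * x) * (a * z * a) * (x * x) := by rw [hC.sq hx, one_mul, mul_one]
      _ = _ := by simp only [mul_assoc]
  by_cases h1 : Commute z x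
  · refine ⟨h1, ?_⟩
    rw [← h1.eq, mul_assoc z, hC.sq hx, mul_one] at e2
    show z * a = a * z
    conv_lhs => rw [← e2]
    rw [mul_assoc (a * z), hC.sq ha, mul_one]
  · exact absurd (hC.conj_inj hz hx ha (fun h => h1 h.symm) e2.symm) hne

theorem mul_sq {x a : G} (hx : x ∈ D) (ha : a ∈ D) (hxa : Commute x a) :
    x * a * (x * a) = 1 := by
  rw [← pow_two, hxa.mul_pow, pow_two, pow_two, hM.cfg.sq hx, hM.cfg.sq ha, one_mul]

theorem conj_mul_mem {x a y : G} (hx : x ∈ D) (ha : a ∈ D) (hy : y ∈ D) (hxa : Commute x a) :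
    x * a * y * (x * a) ∈ D := by
  have h := hM.cfg.conj y hy (x * a)
  rwa [inv_eq_of_mul_eq_one_left (hM.mul_sq hx ha hxa)] at h

/-- If `x * a ∉ D` then every `y` commutes with its conjugate under `x * a`. -/
theorem commute_conj {x a y : G} (hx : x ∈ D) (ha : a ∈ D) (hy : y ∈ D) (hxa : Commute x a)
    (hne : x ≠ a) (ht : x * a ∉ D) (hyx : ¬ Commute y x) (hya : ¬ Commute y a) :
    Commute y (x * a * y * (x * a)) := by
  have hC := hM.cfg
  by_contra hnc
  have hy' := hM.conj_mul_mem hx ha hy hxa
  have ht2 := hM.mul_sq hx ha hxa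
  have hcx : Commute x (x * a) := (Commute.refl x).mul_right hxa
  have hca : Commute a (x * a) := hxa.symm.mul_right (Commute.refl a)
  set t := x * a with htdef
  set m := mid p y (t * y * t) with hmdef
  have hm : m ∈ D := hC.mid_mem hy hy' hnc
  have hmy : m * y * m = t * y * t := hC.mid_conj hy hy' hnc
  have hmy' : m * (t * y * t) * m = y := by
    rw [← hmy, show m * (m * y * m) * m = m * m * y * (m * m) by simp only [mul_assoc],
      hC.sq hm, one_mul, mul_one]
  have htmD : t * m * t ∈ D := hM.conj_mul_mem hx ha hm hxa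
  have hmt : Commute m t := by
    have e : t * m * t = m := by
      refine hC.mid_unique hy htmD hnc ?_
      calc t * m * t * y * (t * m * t) = t * (m * (t * y * t) * m) * t := by simp only [mul_assoc]
        _ = t * y * t := by rw [hmy']
    show m * t = t * m
    conv_lhs => rw [← e]
    rw [mul_assoc (t * m), ht2, mul_one]
  obtain ⟨hmx, hma⟩ := hM.commute_of_commute_mul hx ha hm hxa hne hmt
  have hz1 : t * m ≠ 1 := fun h => ht (by
    rw [eq_inv_of_mul_eq_one_left h, hC.inv_eq hm]
    exact hm)
  have hzy : Commute y (t * m) := by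
    have e : t * m * y * (m * t) = y := by
      calc t * m * y * (m * t) = t * (m * y * m) * t := by simp only [mul_assoc]
        _ = (t * t) * y * (t * t) := by rw [hmy]; simp only [mul_assoc]
        _ = y := by rw [ht2, one_mul, mul_one]
    show y * (t * m) = t * m * y
    conv_lhs => rw [← e]
    calc t * m * y * (m * t) * (t * m) = t * m * y * (m * (t * t) * m) := by simp only [mul_assoc]
      _ = t * m * y := by rw [ht2, mul_one, hC.sq hm, mul_one]
  exact hnc (hM.key_centralized hz1 hx ha hy (hcx.mul_right hmx.symm) (hca.mul_right hma.symm)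
    hzy hxa hyx hya)

/-- `x, a` commute and some member commutes with `x` but not with `a`. -/
def Pair (D : Set G) (x a : G) : Prop :=
  x ∈ D ∧ a ∈ D ∧ Commute x a ∧ ∃ b ∈ D, Commute b x ∧ ¬ Commute b a

omit hM in
theorem Pair.ne {x a : G} (h : Pair D x a) : x ≠ a := by
  rintro rfl
  obtain ⟨-, -, -, b, -, h1, h2⟩ := h
  exact h2 h1

theorem pair_conj {x a : G} (h : Pair D x a) (g : G) :
    Pair D (g * x * g⁻¹) (g * a * g⁻¹) := by
  obtain ⟨hx, ha, hxa, b, hb, h1, h2⟩ := h
  refine ⟨hM.cfg.conj x hx g, hM.cfg.conj a ha g, by simpa using hxa.map (MulAut.conj g).toMonoidHom,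
    g * b * g⁻¹, hM.cfg.conj b hb g, by simpa using h1.map (MulAut.conj g).toMonoidHom,
    fun hc => h2 ?_⟩
  have := hc.map (MulAut.conj g⁻¹).toMonoidHom
  simpa [mul_assoc] using this

theorem pair_mul_notMem {x a : G} (h : Pair D x a) : x * a ∉ D := by
  intro ht
  have hne := h.ne
  obtain ⟨hx, ha, hxa, b, hb, h1, h2⟩ := h
  have hsub : {d | d ∈ D ∧ Commute d (x * a)} ⊂ {d | d ∈ D ∧ Commute d x} := by
    refine ⟨fun d hd => ⟨hd.1, (hM.commute_of_commute_mul hx ha hd.1 hxa hne hd.2).1⟩, fun h =>
      h2 ?_⟩
    exact (hM.commute_of_commute_mul hx ha hb hxa hne (h ⟨hb, h1⟩).2).2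
  exact (Set.ncard_lt_ncard hsub (Set.toFinite _)).ne (hM.ncard_commute ht hx)

theorem pair_unique {x a x' a' : G} (h : Pair D x a) (hx' : x' ∈ D) (ha' : a' ∈ D)
    (hc : Commute x' a') (he : x' * a' = x * a) : x' = x ∨ x' = a := by
  have hC := hM.cfg
  have ht := hM.pair_mul_notMem h
  have hne := h.ne
  obtain ⟨hx, ha, hxa, b, hb, h1, h2⟩ := h
  have hne' : x' ≠ a' := by
    rintro rfl
    rw [hC.sq hx'] at he
    exact hne (by rw [eq_inv_of_mul_eq_one_left he.symm, hC.inv_eq ha])
  have hbt : x * a * b * (x * a) = a * b * a := by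
    calc x * a * b * (x * a) = (x * a) * b * (a * x) := by rw [hxa.eq]
      _ = x * (a * b * a) * x := by simp only [mul_assoc]
      _ = (x * a) * b * (a * x) := by simp only [mul_assoc]
      _ = (a * x) * b * (x * a) := by rw [hxa.eq]
      _ = a * (b * (x * x)) * a := by rw [mul_assoc a, ← h1.eq]; simp only [mul_assoc]
      _ = a * b * a := by rw [hC.sq hx, mul_one]
  by_cases c1 : Commute b x'
  · by_cases c2 : Commute b a'
    · exfalso
      refine hC.conj_not_commute ha hb (fun h => h2 h.symm) ?_
      rw [← hbt, ← he, ← (c1.mul_right c2).eq, mul_assoc, hM.mul_sq hx' ha' hc, mul_one]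
    · left
      have hbt' : x' * a' * b * (x' * a') = a' * b * a' := by
        calc x' * a' * b * (x' * a') = (a' * x') * b * (x' * a') := by rw [hc.eq]
          _ = a' * (b * (x' * x')) * a' := by rw [mul_assoc a', ← c1.eq]; simp only [mul_assoc]
          _ = a' * b * a' := by rw [hC.sq hx', mul_one]
      rw [he, hbt] at hbt'
      have e := hC.conj_inj hb ha ha' (fun h => h2 h.symm) hbt'
      rw [← e] at he
      exact mul_right_cancel he
  · by_cases c2 : Commute b a'
    · right
      have hbt' : x' * a' * b * (x' * a') = x' * b * x' := by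
        calc x' * a' * b * (x' * a') = x' * (a' * b) * (x' * a') := by simp only [mul_assoc]
          _ = x' * (b * a') * (a' * x') := by rw [c2.eq, hc.eq]
          _ = x' * b * ((a' * a') * x') := by simp only [mul_assoc]
          _ = x' * b * x' := by rw [hC.sq ha', one_mul]
      rw [he, hbt] at hbt'
      exact (hC.conj_inj hb ha hx' (fun h => h2 h.symm) hbt').symm
    · exfalso
      have hcc := hM.commute_conj hx' ha' hb hc hne' (he ▸ ht) c1 c2
      rw [he, hbt] at hcc
      exact hC.conj_not_commute ha hb (fun h => h2 h.symm) hcc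

theorem exists_pair_with_common {x v : G} (hx : x ∈ D) (hv : v ∈ D) (hxv : Commute x v)
    (hne : ¬ ∀ b ∈ D, Commute b x → Commute b v) : Pair D x v := by
  push Not at hne
  exact ⟨hx, hv, hxv, hne⟩

/-- Commuting is transitive on `D`. -/
theorem commute_trans {x a b : G} (hx : x ∈ D) (ha : a ∈ D) (hb : b ∈ D) (hxa : Commute x a)
    (hbx : Commute b x) : Commute b a := by
  by_contra hba
  have hC := hM.cfg
  have hPair : Pair D x a := ⟨hx, ha, hxa, b, hb, hbx, hba⟩
  obtain ⟨x, a, hP, y, hy, hyx, hya⟩ : ∃ x a, Pair D x a ∧ ∃ y ∈ D, ¬ Commute y x ∧ ¬ Commute y a := by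
    by_contra hno
    push Not at hno
    let Tw : Set G := {v | v ∈ D ∧ Commute x v ∧ ∀ c ∈ D, Commute c x ↔ Commute c v}
    let S : Set G := {v | v ∈ D ∧ ¬ Commute v x} ∪ Tw
    have hS : S = D := by
      refine hM.connected ?_ ⟨x, Or.inr ⟨hx, Commute.refl x, fun c _ => Iff.rfl⟩⟩ ?_
      · rintro v (hv | hv) <;> exact hv.1
      · rintro s (⟨hs, hsx⟩ | ⟨hs, -, hsT⟩) d hd hsd
        · by_cases hdx : Commute d x
          · refine Or.inr ⟨hd, hdx.symm, fun c hc => ⟨fun h => ?_, fun h => ?_⟩⟩
            · by_contra h'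
              exact hsd (hno x d ⟨hx, hd, hdx.symm, c, hc, h, h'⟩ s hs hsx)
            · by_contra h'
              exact hsx (hno d x ⟨hd, hx, hdx, c, hc, h, h'⟩ s hs hsd)
          · exact Or.inl ⟨hd, hdx⟩
        · exact Or.inl ⟨hd, fun h => hsd ((hsT d hd).1 h).symm⟩
    have haS : a ∈ S := hS ▸ ha
    rcases haS with h | h
    · exact h.2 hxa.symm
    · exact hba ((h.2.2 b hb).1 hbx)
  have hne := hP.ne
  have ht := hM.pair_mul_notMem hP
  have hx := hP.1
  have ha := hP.2.1
  have hxa := hP.2.2.1
  have hy' := hM.conj_mul_mem hx ha hy hxa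
  have hyy' := hM.commute_conj hx ha hy hxa hne ht hyx hya
  have ht2 := hM.mul_sq hx ha hxa
  have hyne : y ≠ x * a * y * (x * a) := by
    intro h
    refine hyx (hM.commute_of_commute_mul hx ha hy hxa hne ?_).1
    show y * (x * a) = x * a * y
    conv_lhs => rw [h]
    rw [mul_assoc (x * a * y), ht2, mul_one]
  set t := x * a with htdef
  set y' := t * y * t with hy'def
  set u := y * y' with hudef
  have hu2 : u * u = 1 := hM.mul_sq hy hy' hyy'
  have hut : Commute t u := by
    show t * (y * y') = y * y' * t
    calc t * (y * y') = (t * y * t) * y * t := by rw [hy'def]; simp only [mul_assoc]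
      _ = y * y' * t := by rw [← hy'def, ← hyy'.eq]
  have hty : y * t * y = t * u := by
    calc y * t * y = (t * t) * y * t * y := by rw [ht2, one_mul]
      _ = t * (y' * y) := by rw [hy'def]; simp only [mul_assoc]
      _ = t * u := by rw [← hyy'.eq]
  have hxu : x * u * x ≠ u := by
    intro h
    have hc : Commute x u := by
      show x * u = u * x
      conv_rhs => rw [← h]
      rw [mul_assoc (x * u), hC.sq hx, mul_one]
    exact hyx (hM.commute_of_commute_mul hy hy' hx hyy' hyne hc).1.symm
  have hconjD : ∀ d ∈ D, u * d * u ∈ D := fun d hd => hM.conj_mul_mem hy hy' hd hyy'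
  have hprod : u * x * u * (u * a * u) = x * a := by
    calc u * x * u * (u * a * u) = u * x * (u * u) * a * u := by simp only [mul_assoc]
      _ = u * t * u := by rw [hu2, mul_one, htdef]; simp only [mul_assoc]
      _ = x * a := by rw [← hut.eq, mul_assoc, hu2, mul_one]
  have hcc : Commute (u * x * u) (u * a * u) := by
    have := hxa.map (MulAut.conj u).toMonoidHom
    simpa [inv_eq_of_mul_eq_one_left hu2] using this
  have hxu' : u * x * u = a := by
    rcases hM.pair_unique hP (hconjD x hx) (hconjD a ha) hcc hprod with h | h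
    · exfalso
      apply hxu
      calc x * u * x = (u * x * u) * u * x := by rw [h]
        _ = u * (x * (u * u) * x) := by simp only [mul_assoc]
        _ = u := by rw [hu2, mul_one, hC.sq hx, mul_one]
    · exact h
  have hP' := hM.pair_conj hP y
  rw [hC.inv_eq hy] at hP'
  have hprod' : x * y * x * (x * y' * x) = y * x * y * (y * a * y) := by
    calc x * y * x * (x * y' * x) = x * y * (x * x) * y' * x := by simp only [mul_assoc]
      _ = x * u * x := by rw [hC.sq hx, mul_one, hudef]; simp only [mul_assoc]
      _ = x * (u * x * u) * u := by simp only [mul_assoc, hu2, mul_one]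
      _ = t * u := by rw [hxu', htdef]
      _ = y * (x * (y * y) * a) * y := by rw [← hty, hC.sq hy, mul_one, htdef]
      _ = y * x * y * (y * a * y) := by simp only [mul_assoc]
  have hcc' : Commute (x * y * x) (x * y' * x) := by
    have := hyy'.map (MulAut.conj x).toMonoidHom
    simpa [hC.inv_eq hx] using this
  rcases hM.pair_unique hP' (hC.conj_self hx hy) (hC.conj_self hx hy') hcc' hprod' with h | h
  · have h3 : (x * y) ^ 3 = 1 := by
      calc (x * y) ^ 3 = (x * y * x) * (y * x * y) := by
            simp only [pow_succ, pow_zero, one_mul, mul_assoc]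
        _ = 1 := by rw [h, hC.sq (hC.conj_self hy hx)]
    have hd := orderOf_dvd_of_pow_eq_one h3
    rw [hC.order_eq hx hy fun h => hyx h.symm] at hd
    have := Nat.le_of_dvd (by omega) hd
    have := hC.five
    omega
  · have hx2 : x = y * a * y * a * y := by
      rw [h] at hprod'
      have h5 : x * y' * x = y * x * y := by
        have e : y * a * y * (x * y' * x) = y * a * y * (y * x * y) := by
          rw [hprod']
          have := (hxa.map (MulAut.conj y).toMonoidHom)
          simp only [MulEquiv.coe_toMonoidHom, MulAut.conj_apply, hC.inv_eq hy] at this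
          exact this.eq
        exact mul_left_cancel e
      have h6 : a * y * a = y * x * y := by
        rw [← h5, hy'def, htdef]
        calc a * y * a = (x * x) * a * y * a * 1 := by rw [hC.sq hx, one_mul, mul_one]
          _ = x * (x * a * y * (a * x)) * x := by
              conv_lhs => rw [← hC.sq hx]
              simp only [mul_assoc]
          _ = x * (x * a * y * (x * a)) * x := by rw [hxa.eq]
      calc x = y * (y * x * y) * y := by
            simp only [mul_assoc, hC.sq hy, mul_one]; rw [← mul_assoc, hC.sq hy, one_mul]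
        _ = y * a * y * a * y := by rw [← h6]; simp only [mul_assoc]
    have h6 : (a * y) ^ 6 = 1 := by
      have e : a * x = (a * y) ^ 3 := by
        rw [hx2]
        simp only [pow_succ, pow_zero, one_mul, mul_assoc]
      rw [show (6 : ℕ) = 3 * 2 from rfl, pow_mul, ← e, pow_two]
      exact hM.mul_sq ha hx hxa.symm
    have hd := orderOf_dvd_of_pow_eq_one h6
    rw [hC.order_eq ha hy fun h => hya h.symm] at hd
    have := Nat.le_of_dvd (by omega) hd
    have := hC.five
    have hp := hC.prime
    interval_cases p
    · norm_num at hd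
    · exact absurd hp (by decide)

end Min

end Cfsg.Agent.OddTwoP
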