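import Cfsg.Agent.OddTwoP.Basic
import Mathlib.GroupTheory.Solvable
import Mathlib.GroupTheory.QuotientGroup.Basic

/-!
# The solvable case
-/

set_option autoImplicit false

namespace Cfsg.Agent.OddTwoP

open Subgroup
open scoped commutatorElement

universe u

/-- A nontrivial solvable group has a nontrivial abelian normal subgroup of prime exponent. -/
theorem exists_elementary_normal (G : Type*) [Group G] [Finite G] [Nontrivial G]
    (hG : Group.IsSolvable G) :
    ∃ M : Subgroup G, M.Normal ∧ M ≠ ⊥ ∧ (∀ x ∈ M, ∀ y ∈ M, x * y = y * x) ∧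
      ∃ q : ℕ, q.Prime ∧ ∀ x ∈ M, x ^ q = 1 := by
  classical
  have hex := (Group.isSolvable_def G).1 hG
  have hm := Nat.find_spec hex
  obtain ⟨m, hm'⟩ : ∃ m, Nat.find hex = m + 1 := by
    refine Nat.exists_eq_succ_of_ne_zero fun h0 => ?_
    rw [h0, derivedSeries_zero] at hm
    exact top_ne_bot hm
  set K := derivedSeries G m with hKdef
  have hKn : K.Normal := inferInstance
  have hK : K ≠ ⊥ := fun h => by
    have := Nat.find_min' hex h
    omega
  have hKc : ∀ x ∈ K, ∀ y ∈ K, x * y = y * x := fun x hx y hy => by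
    have h := Subgroup.commutator_mem_commutator hx hy
    rw [hKdef, ← derivedSeries_succ, ← hm', hm, Subgroup.mem_bot] at h
    exact commutatorElement_eq_one_iff_mul_comm.1 h
  have hcard : Nat.card K ≠ 1 := fun h => hK (Subgroup.card_eq_one.1 h)
  obtain ⟨q, hq, hqd⟩ := Nat.exists_prime_and_dvd hcard
  haveI : Fact q.Prime := ⟨hq⟩
  let M : Subgroup G :=
    { carrier := {x | x ∈ K ∧ x ^ q = 1}
      one_mem' := ⟨one_mem _, one_pow q⟩
      mul_mem' := fun {a b} ha hb => ⟨mul_mem ha.1 hb.1, by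
        rw [(show Commute a b from hKc a ha.1 b hb.1).mul_pow, ha.2, hb.2, one_mul]⟩
      inv_mem' := fun {a} ha => ⟨inv_mem ha.1, by rw [inv_pow, ha.2, inv_one]⟩ }
  refine ⟨M, ⟨fun x hx g => ⟨hKn.conj_mem x hx.1 g, ?_⟩⟩, fun hM => ?_,
    fun x hx y hy => hKc x hx.1 y hy.1, q, hq, fun x hx => hx.2⟩
  · rw [conj_pow, hx.2, mul_one, mul_inv_cancel]
  · obtain ⟨x, hx⟩ := exists_prime_orderOf_dvd_card' q hqd
    have hx' : (x : G) ∈ M := ⟨x.2, by
      rw [← SubmonoidClass.coe_pow, ← hx, pow_orderOf_eq_one]; rfl⟩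
    rw [hM, Subgroup.mem_bot, OneMemClass.coe_eq_one] at hx'
    rw [hx', orderOf_one] at hx
    exact hq.ne_one hx.symm

theorem card_quotient_lt {G : Type*} [Group G] [Finite G] {M : Subgroup G} (hM : M ≠ ⊥) :
    Nat.card (G ⧸ M) < Nat.card G := by
  rw [Subgroup.card_eq_card_quotient_mul_card_subgroup M]
  have h1 : 1 < Nat.card M := (Subgroup.one_lt_card_iff_ne_bot M).2 hM
  exact lt_mul_of_one_lt_right Nat.card_pos h1

theorem key_aux (n : ℕ) : ∀ (G : Type u) [Group G] [Finite G], Nat.card G = n →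
    Group.IsSolvable G → ∀ (p : ℕ) (D : Set G), Config p D → ∀ x ∈ D, ∀ a ∈ D, ∀ y ∈ D,
      Commute x a → ¬ Commute y x → ¬ Commute y a → Commute y (x * a * y * (x * a)) := by
  induction n using Nat.strong_induction_on with
  | _ n ih =>
  intro G _ _ hn hG p D hC x hx a ha y hy hxa hyx hya
  by_contra hnc
  set t := x * a with ht
  have ht2 : t * t = 1 := by
    rw [ht, ← pow_two, hxa.mul_pow, pow_two, pow_two, hC.sq hx, hC.sq ha, one_mul]
  have hta : t * y * t ∈ D := by
    have h := hC.conj y hy t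
    rwa [inv_eq_of_mul_eq_one_left ht2] at h
  have hzo : orderOf (y * (t * y * t)) = p := hC.order_eq hy hta hnc
  have : Nontrivial G := ⟨⟨y, 1, hC.ne_one hy⟩⟩
  obtain ⟨M, hMn, hMb, -, q, hq, hMq⟩ := exists_elementary_normal G hG
  haveI := hMn
  let f := QuotientGroup.mk' M
  have hsurj : Function.Surjective f := QuotientGroup.mk'_surjective M
  have fsq : ∀ u : G, u * u = 1 → f u * f u = 1 := fun u hu => by rw [← map_mul, hu, map_one]
  have fpow : ∀ u ∈ D, ∀ v ∈ D, ¬ Commute u v → (f u * f v) ^ p = 1 := fun u hu v hv h => by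
    rw [← map_mul, ← map_pow, hC.pow_eq_one hu hv h, map_one]
  have hft : f t = 1 := by
    by_cases h1 : Commute (f y) (f x)
    · have e1 : f y = f x :=
        eq_of_pow hC.odd (fsq _ (hC.sq hy)) (fsq _ (hC.sq hx)) h1 (fpow y hy x hx hyx)
      have e2 : f y = f a := eq_of_pow hC.odd (fsq _ (hC.sq hy)) (fsq _ (hC.sq ha))
        (by rw [e1]; exact hxa.map f) (fpow y hy a ha hya)
      rw [ht, map_mul, ← e1, ← e2, fsq _ (hC.sq hy)]
    · by_cases h2 : Commute (f y) (f a)
      · have e2 : f y = f a :=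
          eq_of_pow hC.odd (fsq _ (hC.sq hy)) (fsq _ (hC.sq ha)) h2 (fpow y hy a ha hya)
        exact absurd (by rw [e2]; exact (hxa.map f).symm) h1
      have hne : f y ≠ 1 ∧ f x ≠ 1 ∧ f a ≠ 1 :=
        ⟨fun h => h1 (h ▸ Commute.one_left _), fun h => h1 (h ▸ Commute.one_right _),
          fun h => h2 (h ▸ Commute.one_right _)⟩
      have hsol : Group.IsSolvable (G ⧸ M) := by
        haveI := hG
        exact Group.isSolvable_of_surjective hsurj
      have hlt : Nat.card (G ⧸ M) < n := hn ▸ card_quotient_lt hMb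
      have hc := ih _ hlt (G ⧸ M) rfl hsol p _ (hC.map f hsurj) (f x) ⟨⟨x, hx, rfl⟩, hne.2.1⟩
        (f a) ⟨⟨a, ha, rfl⟩, hne.2.2⟩ (f y) ⟨⟨y, hy, rfl⟩, hne.1⟩ (hxa.map f) h1 h2
      rw [← map_mul, ← ht, ← map_mul, ← map_mul] at hc
      have e : f y = f (t * y * t) :=
        eq_of_pow hC.odd (fsq _ (hC.sq hy)) (fsq _ (hC.sq hta)) hc (fpow y hy _ hta hnc)
      have hty : Commute (f t) (f y) := by
        have e' : f y * f t = f t * f y := by
          nth_rewrite 1 [e]
          rw [← map_mul, mul_assoc (t * y), ht2, mul_one, map_mul]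
        exact e'.symm
      have htx : Commute (f t) (f x) := ((Commute.refl x).mul_left hxa.symm).map f
      have hae : f a * f y = f t * (f x * f y) := by
        rw [← mul_assoc]
        congr 1
        rw [← map_mul, ht]
        congr 1
        rw [mul_assoc, ← hxa.eq, ← mul_assoc, hC.sq hx, one_mul]
      have h3 := fpow a ha y hy fun h => hya h.symm
      rw [hae, (htx.mul_right hty).mul_pow, fpow x hx y hy fun h => hyx h.symm, mul_one] at h3
      exact eq_one_of_pow_two hC.odd (fsq _ ht2) h3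
  have htM : t ∈ M := (QuotientGroup.eq_one_iff t).1 hft
  have hzM : y * (t * y * t) ∈ M := by
    have : y * t * y⁻¹ ∈ M := hMn.conj_mem t htM y
    rw [hC.inv_eq hy] at this
    simpa only [mul_assoc] using mul_mem this htM
  have hpq : p = q := by
    have := orderOf_dvd_of_pow_eq_one (hMq _ hzM)
    rw [hzo] at this
    exact (Nat.prime_dvd_prime_iff_eq hC.prime hq).1 this
  have ht1 : t = 1 := eq_one_of_pow_two hC.odd ht2 (hpq ▸ hMq t htM)
  apply hnc
  rw [ht1, one_mul, mul_one]

/-- In a solvable group: if `x, a` commute and `y` commutes with neither, `y` commutes with its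
conjugate under `x * a`. -/
theorem key_solvable {G : Type u} [Group G] [Finite G] (hG : Group.IsSolvable G) {p : ℕ}
    {D : Set G} (hC : Config p D) {x a y : G} (hx : x ∈ D) (ha : a ∈ D) (hy : y ∈ D)
    (hxa : Commute x a) (hyx : ¬ Commute y x) (hya : ¬ Commute y a) :
    Commute y (x * a * y * (x * a)) :=
  key_aux _ G rfl hG p D hC x hx a ha y hy hxa hyx hya

end Cfsg.Agent.OddTwoP
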