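import Cfsg.Agent.OddTwoP.Key
import Mathlib.GroupTheory.Nilpotent

/-!
# Properties of a minimal non-solvable configuration
-/

set_option autoImplicit false

namespace Cfsg.Agent.OddTwoP

open Subgroup

universe u

/-- The hypotheses on a minimal counterexample. -/
structure Min {G : Type u} [Group G] (p : ℕ) (D : Set G) : Prop where
  cfg : Config p D
  gen : closure D = ⊤
  nonempty : D.Nonempty
  hsol : ∀ N : Subgroup G, N.Normal → Group.IsSolvable N → N = ⊥
  proper : ∀ S ⊆ D, closure S ≠ ⊤ → Group.IsSolvable (closure S)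

namespace Min

variable {G : Type u} [Group G] [Finite G] {p : ℕ} {D : Set G} (hM : Min p D)
include hM

theorem center_bot : center G = ⊥ :=
  hM.hsol _ inferInstance
    (Group.isSolvable_of_comm fun a b => Subtype.ext (mem_center_iff.1 b.2 a.1))

theorem not_central {z : G} (hz : z ≠ 1) : ¬ ∀ d ∈ D, Commute d z := by
  intro h
  have hle : (⊤ : Subgroup G) ≤ centralizer {z} := by
    rw [← hM.gen, closure_le]
    intro d hd
    exact mem_centralizer_singleton_iff.2 (h d hd).eq
  have hzc : z ∈ center G :=
    mem_center_iff.2 fun g => mem_centralizer_singleton_iff.1 (hle (mem_top g))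
  rw [hM.center_bot, mem_bot] at hzc
  exact hz hzc

theorem no_pgroup {q : ℕ} [Fact q.Prime] {N : Subgroup G} (hN : N.Normal) (h : IsPGroup q N) :
    N = ⊥ := by
  refine hM.hsol N hN ?_
  haveI := IsPGroup.isNilpotent h
  infer_instance

/-- The key property for three members generating a proper subgroup. -/
theorem key_proper {S : Set G} (hS : S ⊆ D) (hne : closure S ≠ ⊤) {x a y : G} (hx : x ∈ S)
    (ha : a ∈ S) (hy : y ∈ S) (hxa : Commute x a) (hyx : ¬ Commute y x) (hya : ¬ Commute y a) :
    Commute y (x * a * y * (x * a)) := by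
  have h := key_solvable (hM.proper S hS hne) (hM.cfg.subgroup (closure S))
    (x := ⟨x, subset_closure hx⟩) (a := ⟨a, subset_closure ha⟩) (y := ⟨y, subset_closure hy⟩)
    (hS hx) (hS ha) (hS hy) (Subtype.ext hxa.eq)
    (fun h => hyx (congrArg Subtype.val h.eq)) (fun h => hya (congrArg Subtype.val h.eq))
  exact congrArg Subtype.val h.eq

theorem key_centralized {z : G} (hz : z ≠ 1) {x a y : G} (hx : x ∈ D) (ha : a ∈ D) (hy : y ∈ D)
    (zx : Commute x z) (za : Commute a z) (zy : Commute y z)
    (hxa : Commute x a) (hyx : ¬ Commute y x) (hya : ¬ Commute y a) :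
    Commute y (x * a * y * (x * a)) := by
  refine hM.key_proper (S := {d | d ∈ D ∧ Commute d z}) (fun d hd => hd.1) ?_ ⟨hx, zx⟩ ⟨ha, za⟩
    ⟨hy, zy⟩ hxa hyx hya
  intro htop
  apply hM.not_central hz
  intro d _
  have hle : closure {d | d ∈ D ∧ Commute d z} ≤ centralizer {z} := by
    rw [closure_le]
    intro e he
    exact mem_centralizer_singleton_iff.2 he.2.eq
  rw [htop] at hle
  exact mem_centralizer_singleton_iff.1 (hle (mem_top d))

/-- The non-commuting graph on `D` is connected. -/
theorem connected {S : Set G} (hS : S ⊆ D) (hne : S.Nonempty)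
    (hcl : ∀ s ∈ S, ∀ d ∈ D, ¬ Commute s d → d ∈ S) : S = D := by
  have hC := hM.cfg
  refine Set.Subset.antisymm hS fun e he => ?_
  by_contra heS
  have hce : ∀ s ∈ S, Commute s e := fun s hs => by
    by_contra h
    exact heS (hcl s hs e he h)
  have hstab : ∀ d ∈ D, ∀ s ∈ S, d * s * d⁻¹ ∈ S := by
    intro d hd s hs
    rw [hC.inv_eq hd]
    by_cases hc : Commute s d
    · rw [← hc.eq, mul_assoc, hC.sq hd, mul_one]
      exact hs
    · have hdS := hcl s hs d hd hc
      by_contra h
      have hcd : Commute d (d * s * d) := by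
        by_contra h'
        exact h (hcl d hdS _ (hC.conj_self hd (hS hs)) h')
      apply hc
      have := hcd.eq
      rw [← mul_assoc, ← mul_assoc, hC.sq hd, one_mul, mul_assoc (d * s), hC.sq hd, mul_one] at this
      exact this
  have hgen : ∀ g : G, ∀ s ∈ S, g * s * g⁻¹ ∈ S := by
    intro g
    have hg : g ∈ closure D := hM.gen ▸ mem_top g
    induction hg using closure_induction_left with
    | one => intro s hs; simpa using hs
    | mul_left d hd g _ ih =>
      intro s hs
      have := hstab d hd _ (ih s hs)
      convert this using 1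
      group
    | inv_mul_cancel d hd g _ ih =>
      intro s hs
      have := hstab d hd _ (ih s hs)
      convert this using 1
      rw [mul_inv_rev, inv_inv, hC.inv_eq hd]
      simp only [mul_assoc]
  have hnorm : (closure S).Normal := by
    refine ⟨fun x hx g => ?_⟩
    induction hx using closure_induction with
    | mem s hs => exact subset_closure (hgen g s hs)
    | one => simp
    | mul a b _ _ iha ihb =>
      have := mul_mem iha ihb
      convert this using 1
      group
    | inv a _ iha =>
      have := inv_mem iha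
      convert this using 1
      group
  by_cases htop : closure S = ⊤
  · apply hM.not_central (hC.ne_one he)
    intro d _
    have hle : closure S ≤ centralizer {e} := by
      rw [closure_le]
      intro s hs
      exact mem_centralizer_singleton_iff.2 (hce s hs).eq
    rw [htop] at hle
    exact mem_centralizer_singleton_iff.1 (hle (mem_top d))
  · obtain ⟨s, hs⟩ := hne
    have hb := hM.hsol _ hnorm (hM.proper S hS htop)
    have : s ∈ (⊥ : Subgroup G) := hb ▸ subset_closure hs
    exact hC.ne_one (hS hs) (mem_bot.1 this)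

theorem isConj {x y : G} (hx : x ∈ D) (hy : y ∈ D) : IsConj x y := by
  have hC := hM.cfg
  have := hM.connected (S := {d | d ∈ D ∧ IsConj x d}) (fun d hd => hd.1)
    ⟨x, hx, IsConj.refl x⟩ fun s hs d hd hsd => ⟨hd, hs.2.trans (isConj_iff.2
      ⟨mid p s d, by rw [hC.inv_eq (hC.mid_mem hs.1 hd hsd)]; exact hC.mid_conj hs.1 hd hsd⟩)⟩
  rw [← this] at hy
  exact hy.2

/-- the number of members commuting with a member is constant -/
theorem ncard_commute {x y : G} (hx : x ∈ D) (hy : y ∈ D) :
    {d | d ∈ D ∧ Commute d x}.ncard = {d | d ∈ D ∧ Commute d y}.ncard := by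
  obtain ⟨c, rfl⟩ := isConj_iff.1 (hM.isConj hx hy)
  have e : {d | d ∈ D ∧ Commute d (c * x * c⁻¹)} =
      (MulAut.conj c : G → G) '' {d | d ∈ D ∧ Commute d x} := by
    ext d
    constructor
    · rintro ⟨hd, hc⟩
      refine ⟨c⁻¹ * d * c, ⟨by simpa using hM.cfg.conj d hd c⁻¹, ?_⟩,
        by rw [MulAut.conj_apply]; group⟩
      have := hc.map (MulAut.conj c⁻¹).toMonoidHom
      simpa [mul_assoc] using this
    · rintro ⟨e, ⟨he, hc⟩, rfl⟩
      refine ⟨by simpa using hM.cfg.conj e he c, ?_⟩
      simpa using hc.map (MulAut.conj c).toMonoidHom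
  rw [e, Set.ncard_image_of_injective _ (MulAut.conj c).injective]

end Min

end Cfsg.Agent.OddTwoP
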