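import Cfsg.Agent.OddTwoP.Key

/-!
# An invariant set of involutions with all products of order `p` in a solvable group
-/

set_option autoImplicit false

namespace Cfsg.Agent.OddTwoP

universe u

theorem spower_aux (n : ℕ) : ∀ (G : Type u) [Group G] [Finite G], Nat.card G = n →
    Group.IsSolvable G → ∀ (p : ℕ) (D : Set G), Config p D → D.Nonempty →
      (∀ x ∈ D, ∀ y ∈ D, x ≠ y → ¬ Commute x y) → ∃ e, D.ncard = p ^ e := by
  induction n using Nat.strong_induction_on with
  | _ n ih =>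
  intro G _ _ hn hG p D hC ⟨s₀, hs₀⟩ hnc
  classical
  have : Nontrivial G := ⟨⟨s₀, 1, hC.ne_one hs₀⟩⟩
  obtain ⟨M, hMn, hMb, hMc, q, hq, hMq⟩ := exists_elementary_normal G hG
  haveI := hMn
  let f := QuotientGroup.mk' M
  have hsurj : Function.Surjective f := QuotientGroup.mk'_surjective M
  have hconjD : ∀ x ∈ D, ∀ y ∈ D, ∃ c : G, c * x * c⁻¹ = y := by
    intro x hx y hy
    rcases eq_or_ne x y with rfl | hne
    · exact ⟨1, by group⟩
    · refine ⟨mid p x y, ?_⟩
      rw [hC.inv_eq (hC.mid_mem hx hy (hnc x hx y hy hne))]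
      exact hC.mid_conj hx hy (hnc x hx y hy hne)
  by_cases hsM : s₀ ∈ M
  · refine ⟨0, ?_⟩
    rw [pow_zero, Set.ncard_eq_one]
    refine ⟨s₀, Set.eq_singleton_iff_unique_mem.2 ⟨hs₀, fun y hy => ?_⟩⟩
    by_contra hne
    obtain ⟨c, hc⟩ := hconjD s₀ hs₀ y hy
    exact hnc y hy s₀ hs₀ hne (hMc y (hc ▸ hMn.conj_mem s₀ hsM c) s₀ hsM)
  have hne1 : ∀ x ∈ D, f x ≠ 1 := by
    intro x hx h
    obtain ⟨c, hc⟩ := hconjD x hx s₀ hs₀
    exact hsM (hc ▸ hMn.conj_mem x ((QuotientGroup.eq_one_iff x).1 h) c)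
  have hsol : Group.IsSolvable (G ⧸ M) := by
    haveI := hG
    exact Group.isSolvable_of_surjective hsurj
  have himg : f '' D \ {1} = f '' D := by
    ext u
    refine ⟨fun h => h.1, fun h => ⟨h, ?_⟩⟩
    obtain ⟨x, hx, rfl⟩ := h
    exact hne1 x hx
  have hC' : Config p (f '' D) := himg ▸ hC.map f hsurj
  have hnc' : ∀ u ∈ f '' D, ∀ v ∈ f '' D, u ≠ v → ¬ Commute u v := by
    rintro u ⟨x, hx, rfl⟩ v ⟨y, hy, rfl⟩ hne hc
    have hxy : x ≠ y := fun h => hne (h ▸ rfl)
    refine hne (eq_of_pow hC.odd (hC'.sq ⟨x, hx, rfl⟩) (hC'.sq ⟨y, hy, rfl⟩) hc ?_)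
    rw [← map_mul, ← map_pow, hC.pow_eq_one hx hy (hnc x hx y hy hxy), map_one]
  obtain ⟨e, he⟩ := ih _ (hn ▸ card_quotient_lt hMb) (G ⧸ M) rfl hsol p _ hC'
    ⟨_, s₀, hs₀, rfl⟩ hnc'
  have hfib : ∀ s ∈ D, ∃ i, ({x ∈ D | f x = f s} : Set G).ncard = p ^ i := by
    intro s hs
    by_cases hpq : q = p
    · subst hpq
      let Mm : Subgroup G :=
        { carrier := {m | m ∈ M ∧ s * m * s = m⁻¹}
          one_mem' := ⟨one_mem _, by rw [mul_one, hC.sq hs, inv_one]⟩
          mul_mem' := fun {a b} ha hb => ⟨mul_mem ha.1 hb.1, by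
            calc s * (a * b) * s = s * a * (s * s) * b * s := by
                  rw [hC.sq hs, mul_one]; simp only [mul_assoc]
              _ = (s * a * s) * (s * b * s) := by simp only [mul_assoc]
              _ = (a * b)⁻¹ := by
                  rw [ha.2, hb.2, mul_inv_rev]
                  exact hMc _ (inv_mem ha.1) _ (inv_mem hb.1)⟩
          inv_mem' := fun {a} ha => ⟨inv_mem ha.1, by
            have h := congrArg (·⁻¹) ha.2
            simp only [mul_inv_rev, hC.inv_eq hs, inv_inv] at h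
            rw [inv_inv, mul_assoc]
            exact h⟩ }
      have hPG : IsPGroup q Mm := fun m => ⟨1, by
        rw [pow_one]
        exact Subtype.ext (hMq m.1 m.2.1)⟩
      haveI : Fact q.Prime := ⟨hq⟩
      obtain ⟨i, hi⟩ := IsPGroup.iff_card.1 hPG
      refine ⟨i, ?_⟩
      have e1 : ({x ∈ D | f x = f s} : Set G) = (fun m => s * m) '' (Mm : Set G) := by
        ext x
        constructor
        · rintro ⟨hx, hfx⟩
          refine ⟨s * x, ⟨?_, ?_⟩, by
            show s * (s * x) = x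
            rw [← mul_assoc, hC.sq hs, one_mul]⟩
          · apply (QuotientGroup.eq_one_iff _).1
            show f (s * x) = 1
            rw [map_mul, hfx, ← map_mul, hC.sq hs, map_one]
          · rw [← mul_assoc, hC.sq hs, one_mul, mul_inv_rev, hC.inv_eq hx, hC.inv_eq hs]
        · rintro ⟨m, ⟨hm, hms⟩, rfl⟩
          refine ⟨?_, ?_⟩
          · set k := (q + 1) / 2 with hk
            have hsem : SemiconjBy s m m⁻¹ := by
              show s * m = m⁻¹ * s
              rw [← hms, mul_assoc _ s s, hC.sq hs, mul_one]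
            have h := hC.conj s hs (m ^ k)⁻¹
            rw [inv_inv, ← inv_pow, ← (hsem.pow_right k).eq, mul_assoc, ← pow_add, ← two_mul,
              hC.two_half, pow_succ, hMq m hm, one_mul] at h
            exact h
          · show f (s * m) = f s
            rw [map_mul, show f m = 1 from (QuotientGroup.eq_one_iff m).2 hm, mul_one]
      rw [e1, Set.ncard_image_of_injective _ (mul_right_injective s), ← hi,
        ← Nat.card_coe_set_eq]
      rfl
    · refine ⟨0, ?_⟩
      rw [pow_zero, Set.ncard_eq_one]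
      refine ⟨s, Set.eq_singleton_iff_unique_mem.2 ⟨⟨hs, rfl⟩, fun x hx => ?_⟩⟩
      by_contra hne
      have hxs : x * s ∈ M := by
        apply (QuotientGroup.eq_one_iff _).1
        show f (x * s) = 1
        rw [map_mul, hx.2, ← map_mul, hC.sq hs, map_one]
      have hd := orderOf_dvd_of_pow_eq_one (hMq _ hxs)
      rw [hC.order_eq hx.1 hs (hnc x hx.1 s hs hne)] at hd
      exact hpq ((Nat.prime_dvd_prime_iff_eq hC.prime hq).1 hd).symm
  have hfeq : ∀ s ∈ D,
      ({x ∈ D | f x = f s} : Set G).ncard = ({x ∈ D | f x = f s₀} : Set G).ncard := by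
    intro s hs
    obtain ⟨c, hc⟩ := hconjD s₀ hs₀ s hs
    have e1 : ({x ∈ D | f x = f s} : Set G) =
        (MulAut.conj c : G → G) '' {x ∈ D | f x = f s₀} := by
      ext x
      constructor
      · rintro ⟨hx, hfx⟩
        refine ⟨c⁻¹ * x * c, ⟨?_, ?_⟩, by rw [MulAut.conj_apply]; group⟩
        · simpa using hC.conj x hx c⁻¹
        · rw [map_mul, map_mul, hfx, ← hc, map_mul, map_mul, map_inv]
          group
      · rintro ⟨y, ⟨hy, hfy⟩, rfl⟩
        refine ⟨by simpa using hC.conj y hy c, ?_⟩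
        rw [MulAut.conj_apply, ← hc, map_mul, map_mul, hfy, map_mul, map_mul]
    rw [e1, Set.ncard_image_of_injective _ (MulAut.conj c).injective]
  obtain ⟨i, hi⟩ := hfib s₀ hs₀
  refine ⟨e + i, ?_⟩
  haveI : Fintype G := Fintype.ofFinite G
  have hfs : D.toFinset.card = (D.toFinset.image f).card * p ^ i := by
    rw [Finset.card_eq_sum_card_image f D.toFinset, Finset.sum_const_nat (m := p ^ i)]
    intro b hb
    obtain ⟨s, hs, rfl⟩ := Finset.mem_image.1 hb
    rw [Set.mem_toFinset] at hs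
    rw [← hi, ← hfeq s hs, ← Set.ncard_coe_finset]
    congr 1
    ext x
    simp
  rw [Set.ncard_eq_toFinset_card', hfs, pow_add, ← he, ← Set.ncard_coe_finset,
    Finset.coe_image, Set.coe_toFinset]

theorem spower {G : Type u} [Group G] [Finite G] (hG : Group.IsSolvable G) {p : ℕ} {D : Set G}
    (hC : Config p D) (hne : D.Nonempty) (hnc : ∀ x ∈ D, ∀ y ∈ D, x ≠ y → ¬ Commute x y) :
    ∃ e, D.ncard = p ^ e := spower_aux _ G rfl hG p D hC hne hnc

end Cfsg.Agent.OddTwoP
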